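import Cfsg.Agent.H29.Hexacode.Count

set_option autoImplicit false

/-!
Monomial automorphisms of the hexacode.
-/

namespace CfsgLib.H29.Hexacode

/-- The nonzero codes. -/
def pw : Fin 3 → F4 := ![(1, 0), w, w2]

/-- Membership by decoding at three places. -/
def inCode (y : Fin 6 → F4) : Bool :=
  let a := fmul w (y 0) + fmul w2 (y 1)
  let b := fmul w2 (y 0) + fmul w2 (y 1) + y 2
  let c := y 1 + y 2
  (List.finRange 6).all fun i => word a b c i == y i

theorem inCode_word : ∀ a b c : F4, inCode (word a b c) = true := by decide +kernel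

/-- The three spanning words. -/
def gen : Fin 3 → Fin 6 → F4 := ![word (1, 0) 0 0, word 0 (1, 0) 0, word 0 0 (1, 0)]

/-- A monomial map in the model. -/
def mono (σ : Equiv.Perm (Fin 6)) (e : Fin 6 → Fin 3) (y : Fin 6 → F4) : Fin 6 → F4 :=
  fun i => fmul (pw (e i)) (y (σ.symm i))

/-- Whether a monomial map preserves the code. -/
def pres (σ : Equiv.Perm (Fin 6)) (e : Fin 6 → Fin 3) : Bool :=
  (List.finRange 3).all fun k => inCode (mono σ e (gen k))

theorem diag_scalar : ∀ a b c d x y : Fin 3, pres 1 ![a, b, c, d, x, y] = true →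
    b = a ∧ c = a ∧ d = a ∧ x = a ∧ y = a := by decide +kernel

theorem no_swap : ∀ a b c d x y : Fin 3, pres (Equiv.swap 0 1) ![a, b, c, d, x, y] = false := by
  decide +kernel

/-- A three-cycle. -/
def cyc (i j k : Fin 6) : Equiv.Perm (Fin 6) := Equiv.swap i j * Equiv.swap j k

theorem pres_cycles : pres (cyc 0 1 2) ![0, 0, 0, 0, 2, 1] = true ∧
    pres (cyc 0 1 3) ![0, 0, 0, 0, 1, 2] = true ∧
    pres (cyc 0 1 4) ![0, 0, 2, 1, 0, 0] = true ∧
    pres (cyc 0 1 5) ![0, 0, 1, 2, 0, 0] = true := by decide +kernel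

/-- The four starting cycles, their squares and the identity. -/
def base : List (Equiv.Perm (Fin 6)) :=
  1 :: ([cyc 0 1 2, cyc 0 1 3, cyc 0 1 4, cyc 0 1 5].flatMap fun g => [g, g * g])

/-- Products of two starting elements. -/
def two : List (Equiv.Perm (Fin 6)) := base.flatMap fun g => base.map fun h => g * h

theorem cycles_two : ∀ j k : Fin 6, j ≠ 0 → k ≠ 0 → j ≠ k → cyc 0 j k ∈ two := by decide +kernel

theorem cycles_split : ∀ i j k : Fin 6, i ≠ 0 → j ≠ 0 → k ≠ 0 → i ≠ j → j ≠ k → i ≠ k →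
    cyc i j k = cyc 0 i j * cyc 0 j k ∨ cyc i j k = cyc 0 j k * cyc 0 i j := by decide +kernel

theorem cycles_rot : ∀ i j k : Fin 6, i ≠ j → j ≠ k → i ≠ k →
    cyc i j k = cyc j k i ∧ cyc i j k = cyc k i j := by decide +kernel

theorem cycles_mem {H : Subgroup (Equiv.Perm (Fin 6))}
    (hH : ∀ g ∈ [cyc 0 1 2, cyc 0 1 3, cyc 0 1 4, cyc 0 1 5], g ∈ H) {i j k : Fin 6}
    (hij : i ≠ j) (hjk : j ≠ k) (hik : i ≠ k) : cyc i j k ∈ H := by
  have hbase : ∀ g ∈ base, g ∈ H := by
    intro g hg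
    rcases List.mem_cons.mp hg with rfl | hg
    · exact H.one_mem
    obtain ⟨c, hc, hg⟩ := List.mem_flatMap.mp hg
    simp only [List.mem_cons, List.not_mem_nil, or_false] at hg
    rcases hg with rfl | rfl
    · exact hH _ hc
    · exact H.mul_mem (hH _ hc) (hH _ hc)
  have htwo : ∀ a b : Fin 6, a ≠ 0 → b ≠ 0 → a ≠ b → cyc 0 a b ∈ H := fun a b ha hb hab => by
    obtain ⟨g, hg, hm⟩ := List.mem_flatMap.mp (cycles_two a b ha hb hab)
    obtain ⟨h, hh, he⟩ := List.mem_map.mp hm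
    exact he ▸ H.mul_mem (hbase g hg) (hbase h hh)
  by_cases hi : i = 0
  · subst hi; exact htwo j k hij.symm hik.symm hjk
  by_cases hj : j = 0
  · subst hj; rw [(cycles_rot i 0 k hij hjk hik).1]; exact htwo k i hjk.symm hi hik.symm
  by_cases hk : k = 0
  · subst hk; rw [(cycles_rot i j 0 hij hjk hik).2]; exact htwo i j hi hj hij
  rcases cycles_split i j k hi hj hk hij hjk hik with h | h <;> rw [h]
  · exact H.mul_mem (htwo i j hi hj hij) (htwo j k hj hk hjk)
  · exact H.mul_mem (htwo j k hj hk hjk) (htwo i j hi hj hij)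

theorem alternating_le {H : Subgroup (Equiv.Perm (Fin 6))}
    (hH : ∀ g ∈ [cyc 0 1 2, cyc 0 1 3, cyc 0 1 4, cyc 0 1 5], g ∈ H) : alternatingGroup (Fin 6) ≤ H := by
  rw [← Equiv.Perm.closure_three_cycles_eq_alternating, Subgroup.closure_le]
  intro g hg
  obtain ⟨i, hi⟩ := Finset.card_pos.mp (show 0 < g.support.card by rw [hg.card_support]; norm_num)
  have h3 : g ^ 3 = 1 := by rw [← hg.orderOf]; exact pow_orderOf_eq_one g
  have hg3 : ∀ x, g (g (g x)) = x := fun x => by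
    simpa [pow_succ] using Equiv.ext_iff.mp h3 x
  have hne : g i ≠ i := Equiv.Perm.mem_support.mp hi
  have hne2 : g (g i) ≠ i := fun e => hne (by
    have h := hg3 i
    rw [e] at h
    exact h)
  have hne3 : g i ≠ g (g i) := fun e => hne (g.injective e).symm
  have hsupp : g.support = {i, g i, g (g i)} := by
    refine (Finset.eq_of_subset_of_card_le ?_ ?_).symm
    · intro x hx
      simp only [Finset.mem_insert, Finset.mem_singleton] at hx
      rcases hx with rfl | rfl | rfl <;> simp [Equiv.Perm.mem_support, hne, g.injective.eq_iff]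
    · rw [hg.card_support, Finset.card_insert_of_notMem (by simp [hne.symm, hne2.symm]),
        Finset.card_pair hne3]
  have : g = cyc i (g i) (g (g i)) := by
    refine Equiv.ext fun x => ?_
    by_cases hx : x ∈ g.support
    · rw [hsupp] at hx
      simp only [Finset.mem_insert, Finset.mem_singleton] at hx
      rcases hx with rfl | rfl | rfl
      · simp [cyc, Equiv.swap_apply_of_ne_of_ne hne.symm hne2.symm]
      · simp [cyc, Equiv.swap_apply_of_ne_of_ne hne2 hne3.symm]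
      · simp [cyc, hg3]
    · have hx' := Equiv.Perm.notMem_support.mp hx
      rw [hsupp] at hx
      simp only [Finset.mem_insert, Finset.mem_singleton, not_or] at hx
      simp [cyc, hx', Equiv.swap_apply_of_ne_of_ne hx.2.1 hx.2.2, Equiv.swap_apply_of_ne_of_ne hx.1 hx.2.1]
  rw [this]
  exact cycles_mem hH hne.symm hne3 hne2.symm

variable {F : Type*} [Field F] [Fintype F] {ω : F}

theorem model (hF : Fintype.card F = 4) (hω : ω ^ 2 + ω + 1 = 0) :
    (∀ u v, ev ω (u + v) = ev ω u + ev ω v) ∧ (∀ u v, ev ω (fmul u v) = ev ω u * ev ω v) ∧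
      Function.Bijective (ev (F := F) ω) ∧
      (∀ x, x ∈ Cfsg.hexacode F ω ↔ ∃ a b c, (fun i => ev ω (word a b c i)) = x) := by
  classical
  have h2 := two_zero hF
  have hadd : ∀ u v : F4, ev ω (u + v) = ev ω u + ev ω v := fun u v => by
    simp only [ev, Prod.fst_add, Prod.snd_add, val_add_cast h2]; ring
  have hmul : ∀ u v : F4, ev ω (fmul u v) = ev ω u * ev ω v := fun u v => by
    simp only [ev, fmul, val_add_cast h2, val_mul_cast]
    linear_combination ((u.2.val : F) * v.2.val) * (ω + 1) * h2 - ((u.2.val : F) * v.2.val) * hω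
  have hω0 : ω ≠ 0 := fun h => one_ne_zero (α := F) (by linear_combination hω - (ω + 1) * h)
  have hω1 : ω ≠ 1 := fun h => one_ne_zero (α := F) (by linear_combination hω - (ω + 2) * h - h2)
  have hker : ∀ u : F4, ev ω u = 0 → u = 0 := by
    rintro ⟨x, y⟩ h
    rcases zmod_two x with rfl | rfl <;> rcases zmod_two y with rfl | rfl <;>
      simp [ev, ZMod.val_one] at h ⊢
    · exact hω0 h
    · exact hω1 (by linear_combination h - h2)
  have hinj : Function.Injective (ev (F := F) ω) := fun u v h => by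
    rw [← sub_eq_zero]
    apply hker
    have := hadd (u - v) v
    rw [sub_add_cancel] at this
    linear_combination h - this
  have hbij : Function.Bijective (ev (F := F) ω) :=
    (Fintype.bijective_iff_injective_and_card _).mpr ⟨hinj, by rw [hF]; rfl⟩
  have hw : ev ω w = ω := by simp [ev, w, ZMod.val_one]
  have hw2 : ev ω w2 = ω ^ 2 := by
    simp [ev, w2, ZMod.val_one]
    linear_combination -hω + (1 + ω) * h2
  let f : F4 × F4 × F4 → Fin 6 → F := fun t i => ev ω (word t.1 t.2.1 t.2.2 i)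
  have hf : ∀ a b c : F4, f (a, b, c) = ev ω a • ![ω, ω ^ 2, ω ^ 2, ω, ω ^ 2, ω] +
      ev ω b • ![ω ^ 2, ω, ω, ω ^ 2, ω ^ 2, ω] + ev ω c • ![ω ^ 2, ω, ω ^ 2, ω, ω, ω ^ 2] := by
    intro a b c
    ext i
    fin_cases i <;> simp [f, word, hadd, hmul, hw, hw2]
  have h0 : ev ω (0 : F4) = 0 := by simp [ev]
  have hrange : ∀ x, x ∈ Cfsg.hexacode F ω ↔ ∃ t, f t = x := by
    intro x
    rw [Cfsg.hexacode, Submodule.mem_span_triple]
    constructor
    · rintro ⟨a, b, c, rfl⟩
      obtain ⟨a, rfl⟩ := hbij.2 a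
      obtain ⟨b, rfl⟩ := hbij.2 b
      obtain ⟨c, rfl⟩ := hbij.2 c
      exact ⟨(a, b, c), hf a b c⟩
    · rintro ⟨⟨a, b, c⟩, rfl⟩
      exact ⟨_, _, _, (hf a b c).symm⟩
  exact ⟨hadd, hmul, hbij, fun x => (hrange x).trans
    ⟨fun ⟨⟨a, b, c⟩, h⟩ => ⟨a, b, c, h⟩, fun ⟨a, b, c, h⟩ => ⟨(a, b, c), h⟩⟩⟩

theorem monomial_main (hF : Fintype.card F = 4) (hω : ω ^ 2 + ω + 1 = 0) :
    Nat.card {f : Equiv.Perm (Fin 6) × (Fin 6 → Fˣ) // (∀ x ∈ Cfsg.hexacode F ω, Cfsg.monomialMap f.1 f.2 x ∈ Cfsg.hexacode F ω)} = 1080 ∧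
    (∀ c : Fin 6 → Fˣ, (∀ x ∈ Cfsg.hexacode F ω, Cfsg.monomialMap 1 c x ∈ Cfsg.hexacode F ω) → ∀ i j, c i = c j) ∧
    {σ : Equiv.Perm (Fin 6) | ∃ c : Fin 6 → Fˣ, (∀ x ∈ Cfsg.hexacode F ω, Cfsg.monomialMap σ c x ∈ Cfsg.hexacode F ω)} =
      (alternatingGroup (Fin 6) : Set (Equiv.Perm (Fin 6))) := by
  classical
  obtain ⟨hadd, hmul, hbij, hrange⟩ :
      (∀ u v, ev ω (u + v) = ev ω u + ev ω v) ∧ (∀ u v, ev ω (fmul u v) = ev ω u * ev ω v) ∧
      Function.Bijective (ev (F := F) ω) ∧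
      (∀ x, x ∈ Cfsg.hexacode F ω ↔ ∃ a b c, (fun i => ev ω (word a b c i)) = x) := model hF hω
  let e0 := Equiv.ofBijective _ hbij
  have hmem : ∀ y : Fin 6 → F4, (fun i => ev ω (y i)) ∈ Cfsg.hexacode F ω ↔ inCode y = true := by
    intro y
    constructor
    · intro h
      obtain ⟨a, b, c, h⟩ := (hrange _).mp h
      have : y = word a b c := funext fun i => hbij.1 (congrFun h i).symm
      rw [this]; exact inCode_word a b c
    · intro h
      simp only [inCode, List.all_eq_true, List.mem_finRange, beq_iff_eq, forall_const] at h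
      exact (hrange _).mpr ⟨_, _, _, funext fun i => by rw [h i]⟩
  have hpw0 : ev ω (0 : F4) = 0 := by simp [ev]
  have hpw1 : ev ω ((1, 0) : F4) = 1 := by simp [ev, ZMod.val_one]
  have hpwne : ∀ k, pw k ≠ 0 := by decide
  let ee : Fin 3 → Fˣ := fun k => Units.mk0 (ev ω (pw k)) (fun h => hpwne k (hbij.1 (h.trans hpw0.symm)))
  have hpwi : ∀ a b, pw a = pw b → a = b := by decide
  have hpws : ∀ z : F4, z ≠ 0 → ∃ k, pw k = z := by decide +kernel
  have hee : Function.Bijective ee := by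
    refine ⟨fun a b h => ?_, fun u => ?_⟩
    · exact hpwi a b (hbij.1 (congrArg Units.val h))
    · obtain ⟨z, hz⟩ := hbij.2 (u : F)
      have hz0 : z ≠ 0 := fun e => u.ne_zero (by rw [← hz, e, hpw0])
      obtain ⟨k, hk⟩ := hpws z hz0
      exact ⟨k, Units.ext (by rw [← hz, ← hk]; rfl)⟩
  have hmono : ∀ σ (e : Fin 6 → Fin 3) (y : Fin 6 → F4),
      Cfsg.monomialMap σ (ee ∘ e) (fun i => ev ω (y i)) = fun i => ev ω (mono σ e y i) := fun σ e y => by
    funext i; simp [Cfsg.monomialMap, mono, hmul, ee]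
  let Pres : Equiv.Perm (Fin 6) → (Fin 6 → Fˣ) → Prop := fun σ c =>
    ∀ x ∈ Cfsg.hexacode F ω, Cfsg.monomialMap σ c x ∈ Cfsg.hexacode F ω
  have hp : ∀ σ e, Pres σ (ee ∘ e) ↔ pres σ e = true := by
    intro σ e
    have hg : ∀ k, (fun i => ev ω (gen k i)) ∈ Cfsg.hexacode F ω := fun k => by
      rw [hmem]; fin_cases k <;> exact inCode_word _ _ _
    simp only [pres, List.all_eq_true, List.mem_finRange, forall_const]
    constructor
    · intro h k
      rw [← hmem, ← hmono]; exact h _ (hg k)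
    · intro h x hx
      obtain ⟨a, b, c, rfl⟩ := (hrange x).mp hx
      have e1 : Cfsg.monomialMap σ (ee ∘ e) (fun i => ev ω (word a b c i)) =
          ev ω a • (fun i => ev ω (mono σ e (gen 0) i)) + ev ω b • (fun i => ev ω (mono σ e (gen 1) i)) +
          ev ω c • (fun i => ev ω (mono σ e (gen 2) i)) := by
        rw [← hmono, ← hmono, ← hmono]
        funext i
        simp [Cfsg.monomialMap, gen, word, hadd, hmul, hpw0, hpw1]
        ring
      rw [e1]
      exact Submodule.add_mem _ (Submodule.add_mem _ (Submodule.smul_mem _ _ ((hmem _).mpr (h 0)))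
        (Submodule.smul_mem _ _ ((hmem _).mpr (h 1)))) (Submodule.smul_mem _ _ ((hmem _).mpr (h 2)))
  have hcof : ∀ c : Fin 6 → Fˣ, ∃ e, ee ∘ e = c := fun c =>
    ⟨fun i => (Equiv.ofBijective ee hee).symm (c i), funext fun i => Equiv.ofBijective_apply_symm_apply ee hee (c i)⟩
  have hdiag : ∀ c, Pres 1 c → ∀ i j, c i = c j := by
    intro c hc i j
    obtain ⟨e, rfl⟩ := hcof c
    have h := (hp 1 e).mp hc
    rw [show e = ![e 0, e 1, e 2, e 3, e 4, e 5] from funext fun i => by fin_cases i <;> rfl] at h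
    obtain ⟨h1, h2, h3, h4, h5⟩ := diag_scalar _ _ _ _ _ _ h
    have : ∀ i, e i = e 0 := fun i => by fin_cases i <;> first | rfl | assumption
    simp [this i, this j]
  have hcomp : ∀ σ c τ d, Pres σ c → Pres τ d → Pres (σ * τ) (fun i => c i * d (σ.symm i)) := by
    intro σ c τ d h1 h2 x hx
    have h := h1 _ (h2 x hx)
    convert h using 1
    funext i
    simp only [Cfsg.monomialMap, Units.val_mul, mul_assoc]
    rfl
  have hone : Pres 1 1 := fun x hx => by
    convert hx using 1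
    funext i; simp [Cfsg.monomialMap]; rfl
  let H0 : Submonoid (Equiv.Perm (Fin 6)) :=
    { carrier := {σ | ∃ c, Pres σ c}
      one_mem' := ⟨1, hone⟩
      mul_mem' := fun {σ τ} ⟨c, hc⟩ ⟨d, hd⟩ => ⟨_, hcomp σ c τ d hc hd⟩ }
  have hinv : ∀ {σ}, σ ∈ H0 → σ⁻¹ ∈ H0 := by
    intro σ h
    have : σ⁻¹ = σ ^ (orderOf σ - 1) := by
      rw [inv_eq_iff_mul_eq_one, ← pow_succ', Nat.sub_add_cancel (orderOf_pos σ), pow_orderOf_eq_one]
    rw [this]
    exact pow_mem h _
  let H : Subgroup (Equiv.Perm (Fin 6)) := { H0 with inv_mem' := fun h => hinv h }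
  have hA : alternatingGroup (Fin 6) ≤ H := alternating_le (H := H) fun g hg => by
    obtain ⟨h1, h2, h3, h4⟩ := pres_cycles
    simp only [List.mem_cons, List.not_mem_nil, or_false] at hg
    rcases hg with rfl | rfl | rfl | rfl
    exacts [⟨_, (hp _ _).mpr h1⟩, ⟨_, (hp _ _).mpr h2⟩, ⟨_, (hp _ _).mpr h3⟩, ⟨_, (hp _ _).mpr h4⟩]
  have hswap : Equiv.swap 0 1 ∉ H := by
    rintro ⟨c, hc⟩
    obtain ⟨e, rfl⟩ := hcof c
    have h := (hp _ e).mp hc
    rw [show e = ![e 0, e 1, e 2, e 3, e 4, e 5] from funext fun i => by fin_cases i <;> rfl,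
      no_swap] at h
    simp at h
  have hset : {σ : Equiv.Perm (Fin 6) | ∃ c, Pres σ c} = (alternatingGroup (Fin 6) : Set (Equiv.Perm (Fin 6))) := by
    refine Set.Subset.antisymm (fun σ hσ => ?_) hA
    by_contra hn
    apply hswap
    have hs : Equiv.Perm.sign σ = -1 := (Int.units_eq_one_or _).resolve_left
      (fun h => hn (Equiv.Perm.mem_alternatingGroup.mpr h))
    have h2 : Equiv.swap 0 1 * σ ∈ alternatingGroup (Fin 6) := by
      rw [Equiv.Perm.mem_alternatingGroup, map_mul, Equiv.Perm.sign_swap (by decide), hs]; decide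
    have := H.mul_mem (hA h2) (H.inv_mem (show σ ∈ H from hσ))
    simpa [mul_assoc] using this
  refine ⟨?_, hdiag, hset⟩
  have hex : ∀ σ : alternatingGroup (Fin 6), ∃ c, Pres σ c := fun σ =>
    Set.ext_iff.mp hset σ |>.mpr σ.2
  choose c0 hc0 using hex
  have hscal : ∀ σ c (u : Fˣ), Pres σ c → Pres σ (fun i => u * c i) := fun σ c u h x hx => by
    have := Submodule.smul_mem _ (u : F) (h x hx)
    convert this using 1
    funext i
    simp [Cfsg.monomialMap, mul_assoc]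
  have e := Nat.card_eq_of_bijective
    (fun p : alternatingGroup (Fin 6) × Fˣ =>
      (⟨(p.1.1, fun i => p.2 * c0 p.1 i), hscal _ _ p.2 (hc0 p.1)⟩ :
        {f : Equiv.Perm (Fin 6) × (Fin 6 → Fˣ) // Pres f.1 f.2})) ⟨?_, ?_⟩
  · refine e.symm.trans ?_
    rw [Nat.card_prod, nat_card_alternatingGroup, Nat.card_units, Nat.card_fin, Nat.card_eq_fintype_card, hF]
    decide
  · rintro ⟨σ, u⟩ ⟨τ, v⟩ h
    have h1 := congrArg (fun z => z.1.1) h
    obtain rfl : σ = τ := Subtype.ext h1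
    have h2 := congrFun (congrArg (fun z => z.1.2) h) 0
    exact Prod.ext rfl (mul_right_cancel h2)
  · rintro ⟨⟨σ, c⟩, hc⟩
    have hσ : σ ∈ alternatingGroup (Fin 6) := Set.ext_iff.mp hset σ |>.mp ⟨c, hc⟩
    obtain ⟨d', hd'⟩ : σ⁻¹ ∈ H := H.inv_mem ⟨c, hc⟩
    set d := c0 ⟨σ, hσ⟩ with hd
    have h1 := hcomp σ c σ⁻¹ d' hc hd'
    have h2 := hcomp σ d σ⁻¹ d' (hc0 ⟨σ, hσ⟩) hd'
    rw [mul_inv_cancel] at h1 h2
    refine ⟨(⟨σ, hσ⟩, c 0 * (d 0)⁻¹), Subtype.ext (Prod.ext rfl (funext fun i => ?_))⟩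
    change c 0 * (d 0)⁻¹ * d i = c i
    have e1 := hdiag _ h1 i 0
    have e2 := hdiag _ h2 i 0
    set a := d' (σ.symm i)
    set b := d' (σ.symm 0)
    calc c 0 * (d 0)⁻¹ * d i = (c 0 * b) * (d 0 * b)⁻¹ * (d i * a) * a⁻¹ := by
          rw [mul_inv_rev]
          calc c 0 * (d 0)⁻¹ * d i = c 0 * ((b * b⁻¹) * (d 0)⁻¹) * d i * (a * a⁻¹) := by simp
            _ = _ := by simp only [mul_assoc]
      _ = (c i * a) * (d 0 * b)⁻¹ * (d 0 * b) * a⁻¹ := by rw [e1, e2]
      _ = c i := by simp [mul_assoc]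

end CfsgLib.H29.Hexacode
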