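import Mathlib
import Cfsg.Prelude.Def_SporadicCombinatorics

set_option autoImplicit false

/-!
The hexacode, computed in a model of the field with four elements.
-/

namespace CfsgLib.H29.Hexacode

/-- Codes for the field with four elements: `(x, y)` stands for `x + y ω`. -/
abbrev F4 := ZMod 2 × ZMod 2

/-- The product of two codes. -/
def fmul (u v : F4) : F4 := (u.1 * v.1 + u.2 * v.2, u.1 * v.2 + u.2 * v.1 + u.2 * v.2)

/-- Codes of `ω` and `ω²`. -/
def w : F4 := (0, 1)

/-- Code of `ω²`. -/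
def w2 : F4 := (1, 1)

/-- A word. -/
def word (a b c : F4) : Fin 6 → F4 := fun i =>
  fmul a (![w, w2, w2, w, w2, w] i) + fmul b (![w2, w, w, w2, w2, w] i) + fmul c (![w2, w, w2, w, w, w2] i)

/-- Weight of a word. -/
def wt (a b c : F4) : ℕ := (Finset.univ.filter fun i => word a b c i ≠ 0).card

/-- All words. -/
def triples : Finset (F4 × F4 × F4) := Finset.univ

theorem weights : ∀ a b c : F4, (a, b, c) ≠ 0 → wt a b c = 4 ∨ wt a b c = 6 := by decide +kernel

theorem word_inj : ∀ a b c : F4, word a b c = 0 → (a, b, c) = 0 := by decide +kernel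

theorem count4 : (triples.filter fun t => wt t.1 t.2.1 t.2.2 = 4).card = 45 := by decide +kernel

theorem count6 : (triples.filter fun t => wt t.1 t.2.1 t.2.2 = 6).card = 18 := by decide +kernel

variable {F : Type*} [Field F] [Fintype F] {ω : F}

/-- Decoding. -/
def ev (ω : F) (u : F4) : F := (u.1.val : F) + (u.2.val : F) * ω

theorem two_zero (hF : Fintype.card F = 4) : (2 : F) = 0 := by
  have h := FiniteField.cast_card_eq_zero F
  rw [hF] at h
  have : (2 : F) * 2 = 0 := by norm_num; simpa using h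
  simpa using this

theorem zmod_two : ∀ x : ZMod 2, x = 0 ∨ x = 1 := by decide

theorem val_add_cast (h2 : (2 : F) = 0) : ∀ x y : ZMod 2, (((x + y).val : ℕ) : F) = x.val + y.val := by
  intro x y
  rcases zmod_two x with rfl | rfl <;> rcases zmod_two y with rfl | rfl <;>
    simp [show (1 + 1 : ZMod 2) = 0 from rfl, ZMod.val_one]
  linear_combination -h2

theorem val_mul_cast : ∀ x y : ZMod 2, (((x * y).val : ℕ) : F) = x.val * y.val := by
  intro x y
  rcases zmod_two x with rfl | rfl <;> rcases zmod_two y with rfl | rfl <;> simp [ZMod.val_one]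

theorem main (hF : Fintype.card F = 4) (hω : ω ^ 2 + ω + 1 = 0) [DecidableEq F] :
    Nat.card ↥(Cfsg.hexacode F ω) = 64 ∧
    (∀ x ∈ Cfsg.hexacode F ω, x ≠ 0 → (Finset.univ.filter fun i => x i ≠ 0).card = 4 ∨
      (Finset.univ.filter fun i => x i ≠ 0).card = 6) ∧
    {x : Fin 6 → F | x ∈ Cfsg.hexacode F ω ∧ (Finset.univ.filter fun i => x i ≠ 0).card = 4}.ncard = 45 ∧
    {x : Fin 6 → F | x ∈ Cfsg.hexacode F ω ∧ (Finset.univ.filter fun i => x i ≠ 0).card = 6}.ncard = 18 := by
  classical
  have h2 := two_zero hF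
  have hadd : ∀ u v : F4, ev ω (u + v) = ev ω u + ev ω v := fun u v => by
    simp only [ev, Prod.fst_add, Prod.snd_add, val_add_cast h2]; ring
  have hmul : ∀ u v : F4, ev ω (fmul u v) = ev ω u * ev ω v := fun u v => by
    simp only [ev, fmul, val_add_cast h2, val_mul_cast]
    linear_combination ((u.2.val : F) * v.2.val) * (ω + 1) * h2 - ((u.2.val : F) * v.2.val) * hω
  have hω0 : ω ≠ 0 := fun h => one_ne_zero (α := F) (by linear_combination hω - (ω + 1) * h)
  have hω1 : ω ≠ 1 := fun h => one_ne_zero (α := F) (by linear_combination hω - (ω + 2) * h - h2)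
  have hker : ∀ u : F4, ev ω u = 0 → u = 0 := by
    rintro ⟨x, y⟩ h
    rcases zmod_two x with rfl | rfl <;> rcases zmod_two y with rfl | rfl <;>
      simp [ev, ZMod.val_one] at h ⊢
    · exact hω0 h
    · exact hω1 (by linear_combination h - h2)
  have hinj : Function.Injective (ev (F := F) ω) := fun u v h => by
    rw [← sub_eq_zero]
    apply hker
    have := hadd (u - v) v
    rw [sub_add_cancel] at this
    linear_combination h - this
  have hbij : Function.Bijective (ev (F := F) ω) :=
    (Fintype.bijective_iff_injective_and_card _).mpr ⟨hinj, by rw [hF]; rfl⟩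
  have hw : ev ω w = ω := by simp [ev, w, ZMod.val_one]
  have hw2 : ev ω w2 = ω ^ 2 := by
    simp [ev, w2, ZMod.val_one]
    linear_combination -hω + (1 + ω) * h2
  let f : F4 × F4 × F4 → Fin 6 → F := fun t i => ev ω (word t.1 t.2.1 t.2.2 i)
  have hf : ∀ a b c : F4, f (a, b, c) = ev ω a • ![ω, ω ^ 2, ω ^ 2, ω, ω ^ 2, ω] +
      ev ω b • ![ω ^ 2, ω, ω, ω ^ 2, ω ^ 2, ω] + ev ω c • ![ω ^ 2, ω, ω ^ 2, ω, ω, ω ^ 2] := by
    intro a b c
    ext i
    fin_cases i <;> simp [f, word, hadd, hmul, hw, hw2]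
  have h0 : ev ω (0 : F4) = 0 := by simp [ev]
  have hfinj : Function.Injective f := fun s t h => by
    have hz : word (s.1 - t.1) (s.2.1 - t.2.1) (s.2.2 - t.2.2) = 0 := by
      funext i
      have hi : ev ω (word s.1 s.2.1 s.2.2 i) = ev ω (word t.1 t.2.1 t.2.2 i) := congrFun h i
      apply hinj
      rw [Pi.zero_apply, h0]
      have hsub : ∀ u v : F4, ev ω (u - v) = ev ω u - ev ω v := fun u v => by
        have := hadd (u - v) v
        rw [sub_add_cancel] at this
        linear_combination -this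
      simp only [word, hadd, hmul, hsub] at hi ⊢
      linear_combination hi
    have := word_inj _ _ _ hz
    simp only [Prod.mk_eq_zero, sub_eq_zero] at this
    exact Prod.ext this.1 (Prod.ext this.2.1 this.2.2)
  have hrange : ∀ x, x ∈ Cfsg.hexacode F ω ↔ ∃ t, f t = x := by
    intro x
    rw [Cfsg.hexacode, Submodule.mem_span_triple]
    constructor
    · rintro ⟨a, b, c, rfl⟩
      obtain ⟨a, rfl⟩ := hbij.2 a
      obtain ⟨b, rfl⟩ := hbij.2 b
      obtain ⟨c, rfl⟩ := hbij.2 c
      exact ⟨(a, b, c), hf a b c⟩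
    · rintro ⟨⟨a, b, c⟩, rfl⟩
      exact ⟨_, _, _, (hf a b c).symm⟩
  have hwt : ∀ t, (Finset.univ.filter fun i => f t i ≠ 0).card = wt t.1 t.2.1 t.2.2 := fun t => by
    refine congrArg Finset.card (Finset.filter_congr fun i _ => not_congr ?_)
    exact ⟨hker _, fun h => by simp only [f]; rw [h, h0]⟩
  have hset : ∀ k, {x : Fin 6 → F | x ∈ Cfsg.hexacode F ω ∧
      (Finset.univ.filter fun i => x i ≠ 0).card = k}.ncard =
      (triples.filter fun t => wt t.1 t.2.1 t.2.2 = k).card := fun k => by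
    have : {x : Fin 6 → F | x ∈ Cfsg.hexacode F ω ∧ (Finset.univ.filter fun i => x i ≠ 0).card = k} =
        ↑((triples.filter fun t => wt t.1 t.2.1 t.2.2 = k).image f) := by
      ext x
      simp only [Set.mem_ofPred_eq, hrange, Finset.coe_image, Set.mem_image, Finset.mem_coe,
        Finset.mem_filter, triples, Finset.mem_univ, true_and]
      exact ⟨fun ⟨⟨t, ht⟩, hk⟩ => ⟨t, by rw [← hwt, ht]; exact hk, ht⟩,
        fun ⟨t, hk, ht⟩ => ⟨⟨t, ht⟩, by rw [← ht, hwt]; exact hk⟩⟩
    rw [this, Set.ncard_coe_finset, Finset.card_image_of_injective _ hfinj]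
  refine ⟨?_, ?_, (hset 4).trans count4, (hset 6).trans count6⟩
  · have e := Nat.card_congr ((Equiv.ofInjective f hfinj).trans
      (Equiv.setCongr (show Set.range f = (Cfsg.hexacode F ω : Set (Fin 6 → F)) from
        Set.ext fun x => (hrange x).symm)))
    refine Eq.trans e.symm ?_
    simp
  · intro x hx hx0
    obtain ⟨⟨a, b, c⟩, rfl⟩ := (hrange x).mp hx
    rw [hwt]
    refine weights a b c fun h => hx0 ?_
    simp only [Prod.mk_eq_zero] at h
    obtain ⟨rfl, rfl, rfl⟩ := h
    rw [hf, h0]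
    simp

end CfsgLib.H29.Hexacode
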